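import Mathlib
import Cfsg.Agent.Lib.H15.MH0

/-!
# M. Hall's theorem on 4-transitive groups (S4221), piece X4
-/

set_option autoImplicit false

namespace H25.MHX4

open H15.MH

universe u v

variable {G : Type u} {α : Type v} [Group G] [MulAction G α]

lemma inv_sq {s : G} (h : orderOf s = 2) : s * s = 1 := by
  rw [← pow_two, ← h]; exact pow_orderOf_eq_one s

lemma inv_back {s : G} (h : orderOf s = 2) {a b : α} (hab : s • a = b) : s • b = a := by
  rw [← hab, ← mul_smul, inv_sq h, one_smul]

lemma conj_order (g s : G) : orderOf (g * s * g⁻¹) = orderOf s := by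
  have := (MulAut.conj g).orderOf_eq s
  simpa using this

lemma conj_smul {g s : G} {a b c d : α} (h1 : g • a = b) (h2 : s • a = c) (h3 : g • c = d) : (g * s * g⁻¹) • b = d := by
  have h4 : g⁻¹ • b = a := by rw [← h1, inv_smul_smul]
  rw [mul_smul, mul_smul, h4, h2, h3]

theorem unique_x (h : Hyp G α)
    (hu : ∀ a b c d : α, D4 a b c d → ∀ s t : G, orderOf s = 2 → orderOf t = 2 → s • a = a → s • b = b → s • c = d →
      t • a = a → t • b = b → t • c = d → s = t) :
    ∀ a b c d : α, D4 a b c d → ∀ s t : G, orderOf s = 2 → orderOf t = 2 → s • a = b → s • c = d → t • a = b →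
      t • c = d → s = t := by
  intro a b c d hD
  obtain ⟨hab, hac, had, hbc, hbd, hcd⟩ := hD
  have hD : D4 a b c d := ⟨hab, hac, had, hbc, hbd, hcd⟩
  have hD' : D4 c d a b := ⟨hcd, hac.symm, hbc.symm, had.symm, hbd.symm, hab⟩
  obtain ⟨p, hp, pa, pb, pc, pd⟩ := exists_u h hD
  obtain ⟨r, hr, rc, rd, ra, rb⟩ := exists_u h hD'
  have hconj_p : ∀ g : G, (g • a = a ∧ g • b = b ∨ g • a = b ∧ g • b = a) → g • c = c → g • d = d →
      g * p * g⁻¹ = p := by
    intro g hg gc gd
    refine hu a b c d hD _ _ (by rw [conj_order, hp]) hp ?_ ?_ (conj_smul gc pc gd) pa pb pc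
    · rcases hg with ⟨ga, gb⟩ | ⟨ga, gb⟩
      · exact conj_smul ga pa ga
      · exact conj_smul gb pb gb
    · rcases hg with ⟨ga, gb⟩ | ⟨ga, gb⟩
      · exact conj_smul gb pb gb
      · exact conj_smul ga pa ga
  have hconj_r : ∀ g : G, g • a = a → g • b = b → g • c = c → g • d = d → g * r * g⁻¹ = r := by
    intro g ga gb gc gd
    exact hu c d a b hD' _ _ (by rw [conj_order, hr]) hr (conj_smul gc rc gc) (conj_smul gd rd gd) (conj_smul ga ra gb)
      rc rd ra
  have hcomm : r * p = p * r := by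
    have h1 := hconj_p r (Or.inr ⟨ra, rb⟩) rc rd
    rw [mul_inv_eq_iff_eq_mul] at h1
    exact h1
  have xa : (p * r) • a = b := by rw [mul_smul, ra, pb]
  have xb : (p * r) • b = a := by rw [mul_smul, rb, pa]
  have xc : (p * r) • c = d := by rw [mul_smul, rc, pc]
  have xd : (p * r) • d = c := by rw [mul_smul, rd, pd]
  have hx2 : (p * r) * (p * r) = 1 := by
    calc (p * r) * (p * r) = p * (r * p) * r := by group
      _ = p * (p * r) * r := by rw [hcomm]
      _ = (p * p) * (r * r) := by group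
      _ = 1 := by rw [inv_sq hp, inv_sq hr, one_mul]
  have key : ∀ s : G, orderOf s = 2 → s • a = b → s • c = d → s = p * r := by
    intro s hs sa sc
    have sb : s • b = a := inv_back hs sa
    have sd : s • d = c := inv_back hs sc
    obtain ⟨g, ga, gb, gc, gd, hg⟩ := conj_of_eq h hD hx2 (inv_sq hs) (by rw [sa, xb]) (by rw [sb, xa])
      (by rw [sc, xd]) (by rw [sd, xc])
    rw [← hg]
    have h1 := hconj_p g (Or.inl ⟨ga, gb⟩) gc gd
    have h2 := hconj_r g ga gb gc gd
    calc g * (p * r) * g⁻¹ = (g * p * g⁻¹) * (g * r * g⁻¹) := by group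
      _ = p * r := by rw [h1, h2]
  intro s t hs ht sa sc ta tc
  rw [key s hs sa sc, key t ht ta tc]

end H25.MHX4
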