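import Cfsg.Agent.Lib.H96.FrDef
set_option autoImplicit false
set_option linter.unusedSectionVars false

/-! FRAMES P11: auxiliary pieces. -/

namespace H25.FrTr

open Matrix H96.Fr

section tr

variable {ι F : Type*} [Fintype ι] [DecidableEq ι] [Field F] {K : Subgroup ((ι → F) ≃ₗ[F] (ι → F))}

lemma exists_even {I I' : Finset ι} (hI : I.card = 3) (hI' : I'.card = 3) (hN : 5 ≤ Fintype.card ι) :
    ∃ σ : Equiv.Perm ι, Equiv.Perm.sign σ = 1 ∧ ∀ x, σ x ∈ I' ↔ x ∈ I := by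
  classical
  let e0 : {x // x ∈ I} ≃ {x // x ∈ I'} := Finset.equivOfCardEq (hI.trans hI'.symm)
  let σ0 : Equiv.Perm ι := e0.extendSubtype
  have h0 : ∀ x, σ0 x ∈ I' ↔ x ∈ I := by
    intro x
    constructor
    · intro h
      by_contra hx
      exact Equiv.extendSubtype_not_mem e0 x hx h
    · intro hx
      exact Equiv.extendSubtype_mem e0 x hx
  rcases Int.units_eq_one_or (Equiv.Perm.sign σ0) with h1 | h1
  · exact ⟨σ0, h1, h0⟩
  · have hc : 2 ≤ (Iᶜ).card := by rw [Finset.card_compl, hI]; omega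
    obtain ⟨a, ha, b, hb, hab⟩ := Finset.one_lt_card.mp (lt_of_lt_of_le one_lt_two hc)
    rw [Finset.mem_compl] at ha hb
    refine ⟨σ0 * Equiv.swap a b, ?_, ?_⟩
    · rw [map_mul, h1, Equiv.Perm.sign_swap hab]; rfl
    · intro x
      rw [Equiv.Perm.mul_apply, h0]
      by_cases hxa : x = a
      · subst hxa; rw [Equiv.swap_apply_left]; exact ⟨fun h => absurd h hb, fun h => absurd h ha⟩
      · by_cases hxb : x = b
        · subst hxb; rw [Equiv.swap_apply_right]; exact ⟨fun h => absurd h ha, fun h => absurd h hb⟩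
        · rw [Equiv.swap_apply_of_ne_of_ne hxa hxb]

theorem tr_all (D : Dat K) (h2 : (2:F) ≠ 0) (hN : 5 ≤ Fintype.card ι) {I : Finset ι} (hI : I.card = 3)
    (h : ∀ y y' : ι → F, (∀ i, i ∉ I → y i = 0) → (∀ i, i ∉ I → y' i = 0) → y ⬝ᵥ y = y' ⬝ᵥ y' → y ⬝ᵥ y ≠ 0 →
      ∃ g ∈ K, Sup g I ∧ g y = y') : TR K := by
  intro I' hI' y y' hy hy' hn hn0
  obtain ⟨σ, hσ, hσI⟩ := exists_even hI hI' hN
  have hP := D.pm σ hσ
  have hdot : ∀ x z : ι → F, ((pm σ).symm x) ⬝ᵥ ((pm σ).symm z) = x ⬝ᵥ z := by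
    intro x z
    have h1 := D.iso _ hP ((pm σ).symm x) ((pm σ).symm z)
    rw [LinearEquiv.apply_symm_apply, LinearEquiv.apply_symm_apply] at h1
    exact h1.symm
  have hsupp : ∀ x : ι → F, (∀ i, i ∉ I' → x i = 0) → ∀ i, i ∉ I → ((pm σ).symm x : ι → F) i = 0 := by
    intro x hx i hi
    have h1 : ((pm σ).symm x : ι → F) i = x (σ i) := by
      have h3 := pm_apply σ ((pm σ).symm x) (σ i)
      rw [LinearEquiv.apply_symm_apply, Equiv.symm_apply_apply] at h3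
      exact h3.symm
    rw [h1]
    exact hx _ (fun h => hi ((hσI i).mp h))
  obtain ⟨g, hg, hgI, hgy⟩ := h ((pm σ).symm y) ((pm σ).symm y') (hsupp y hy) (hsupp y' hy') (by rw [hdot, hdot, hn])
    (by rw [hdot]; exact hn0)
  refine ⟨pm σ * g * (pm σ)⁻¹, K.mul_mem (K.mul_mem hP hg) (K.inv_mem hP), ?_, ?_⟩
  · intro j hj
    change pm σ (g ((pm σ).symm (e j))) = e j
    have h1 : ((pm σ).symm (e j) : ι → F) = e (σ.symm j) := by
      rw [LinearEquiv.symm_apply_eq, pm_e, Equiv.apply_symm_apply]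
    have h3 : σ.symm j ∉ I := by
      intro h4
      apply hj
      rw [← hσI, Equiv.apply_symm_apply] at h4
      exact h4
    rw [h1, hgI _ h3, pm_e, Equiv.apply_symm_apply]
  · change pm σ (g ((pm σ).symm y)) = y'
    rw [hgy, LinearEquiv.apply_symm_apply]

end tr

section sl2

variable {F : Type*} [Field F] [Fintype F]

open Polynomial in
lemma binary (h2 : (2:F) ≠ 0) {a b : F} (ha : a ≠ 0) (hb : b ≠ 0) : ∃ x y : F, a * x ^ 2 + b * y ^ 2 = 1 := by
  have hF : Fintype.card F % 2 = 1 := by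
    apply FiniteField.odd_card_of_char_ne_two
    intro h
    apply h2
    have : CharP F 2 := ringChar.of_eq h
    exact_mod_cast CharP.cast_eq_zero F 2
  have hda : (C a * X ^ 2 : F[X]).degree = 2 := by
    rw [degree_C_mul_X_pow 2 ha]; rfl
  have hdb : (C b * X ^ 2 - C 1 : F[X]).degree = 2 := by
    rw [degree_sub_C]
    · rw [degree_C_mul_X_pow 2 hb]; rfl
    · rw [degree_C_mul_X_pow 2 hb]; norm_num
  obtain ⟨x, y, hxy⟩ := FiniteField.exists_root_sum_quadratic hda hdb hF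
  refine ⟨x, y, ?_⟩
  simp at hxy
  linear_combination hxy

theorem sl2_std (h2 : (2:F) ≠ 0) (M : Matrix (Fin 2) (Fin 2) F) (hM : M.trace = 0) (h0 : M.det ≠ 0) :
    ∃ x : Matrix.SpecialLinearGroup (Fin 2) F, (x : Matrix (Fin 2) (Fin 2) F) * !![0, -M.det; 1, 0] =
      M * (x : Matrix (Fin 2) (Fin 2) F) := by
  rw [Matrix.trace_fin_two] at hM
  have hdet : M.det = M 0 0 * M 1 1 - M 0 1 * M 1 0 := Matrix.det_fin_two M
  have h11 : M 1 1 = - M 0 0 := by linear_combination hM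
  obtain ⟨s, t, hst⟩ : ∃ s t : F, s * (M 1 0 * s + M 1 1 * t) - t * (M 0 0 * s + M 0 1 * t) = 1 := by
    rw [h11]
    by_cases hc : M 1 0 = 0
    · by_cases hb : M 0 1 = 0
      · have ha : M 0 0 ≠ 0 := by
          intro ha; apply h0; rw [hdet, ha, hb]; ring
        refine ⟨1, -1 / (2 * M 0 0), ?_⟩
        rw [hc, hb]
        field_simp
        ring
      · have ha : M 0 0 ≠ 0 := by
          intro ha; apply h0; rw [hdet, ha, hc]; ring
        obtain ⟨S, T, hST⟩ := binary h2 (neg_ne_zero.mpr hb) (div_ne_zero (pow_ne_zero 2 ha) hb)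
        refine ⟨T, S - M 0 0 / M 0 1 * T, ?_⟩
        rw [hc, ← hST]
        field_simp
        ring
    · have hd : M.det / M 1 0 ≠ 0 := div_ne_zero h0 hc
      obtain ⟨S, T, hST⟩ := binary h2 hc hd
      refine ⟨S + M 0 0 / M 1 0 * T, T, ?_⟩
      rw [← hST, hdet, h11]
      field_simp
      ring
  have hx : Matrix.det !![s, M 0 0 * s + M 0 1 * t; t, M 1 0 * s + M 1 1 * t] = 1 := by
    rw [Matrix.det_fin_two_of]
    linear_combination hst
  refine ⟨⟨_, hx⟩, ?_⟩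
  ext i j
  fin_cases i <;> fin_cases j
  · simp [Matrix.mul_apply, Fin.sum_univ_two]
  · simp [Matrix.mul_apply, Fin.sum_univ_two, hdet, h11]; ring
  · simp [Matrix.mul_apply, Fin.sum_univ_two]
  · simp [Matrix.mul_apply, Fin.sum_univ_two, hdet, h11]; ring

theorem sl2_conj (h2 : (2:F) ≠ 0) (M N : Matrix (Fin 2) (Fin 2) F) (hM : M.trace = 0) (hN : N.trace = 0)
    (hd : M.det = N.det) (h0 : M.det ≠ 0) :
    ∃ x : Matrix.SpecialLinearGroup (Fin 2) F, (x : Matrix (Fin 2) (Fin 2) F) * M = N * (x : Matrix (Fin 2) (Fin 2) F) := by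
  obtain ⟨x, hx⟩ := sl2_std h2 M hM h0
  obtain ⟨y, hy⟩ := sl2_std h2 N hN (hd ▸ h0)
  rw [← hd] at hy
  refine ⟨y * x⁻¹, ?_⟩
  have h1 : ((x⁻¹ : Matrix.SpecialLinearGroup (Fin 2) F) : Matrix (Fin 2) (Fin 2) F) * (x : Matrix (Fin 2) (Fin 2) F) = 1 := by
    rw [← Matrix.SpecialLinearGroup.coe_mul, inv_mul_cancel, Matrix.SpecialLinearGroup.coe_one]
  have h3 : (x : Matrix (Fin 2) (Fin 2) F) * ((x⁻¹ : Matrix.SpecialLinearGroup (Fin 2) F) : Matrix (Fin 2) (Fin 2) F) = 1 := by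
    rw [← Matrix.SpecialLinearGroup.coe_mul, mul_inv_cancel, Matrix.SpecialLinearGroup.coe_one]
  have h4 : ((x⁻¹ : Matrix.SpecialLinearGroup (Fin 2) F) : Matrix (Fin 2) (Fin 2) F) * M =
      !![0, -M.det; 1, 0] * ((x⁻¹ : Matrix.SpecialLinearGroup (Fin 2) F) : Matrix (Fin 2) (Fin 2) F) := by
    calc _ = ((x⁻¹ : Matrix.SpecialLinearGroup (Fin 2) F) : Matrix (Fin 2) (Fin 2) F) * (M * ((x : Matrix (Fin 2) (Fin 2) F) *
          ((x⁻¹ : Matrix.SpecialLinearGroup (Fin 2) F) : Matrix (Fin 2) (Fin 2) F))) := by rw [h3, Matrix.mul_one]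
      _ = (((x⁻¹ : Matrix.SpecialLinearGroup (Fin 2) F) : Matrix (Fin 2) (Fin 2) F) * (x : Matrix (Fin 2) (Fin 2) F)) *
          !![0, -M.det; 1, 0] * ((x⁻¹ : Matrix.SpecialLinearGroup (Fin 2) F) : Matrix (Fin 2) (Fin 2) F) := by
            rw [← Matrix.mul_assoc M, ← hx]; simp only [Matrix.mul_assoc]
      _ = _ := by rw [h1, Matrix.one_mul]
  rw [Matrix.SpecialLinearGroup.coe_mul, Matrix.mul_assoc, h4, ← Matrix.mul_assoc, hy, Matrix.mul_assoc]

end sl2

end H25.FrTr
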