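import Cfsg.Agent.Lib.H69.IC0

/-! S1315, piece P5: an involution acting trivially on a `2`-component modulo the odd core. -/

set_option autoImplicit false
set_option linter.unusedSectionVars false

open Subgroup Cfsg H26.LocalFitting H69.IC H37.PCOf H26.OPPrime

universe u

namespace H25.IcP5

variable {G : Type u} [Group G] [Finite G]

/-- quotient part from a surjection with `2'`-kernel -/
theorem qs_of {E : Subgroup G} {D : Type u} [Group D] [Finite D] (hD : IsQuasisimple D) (hDO : pPrimeCore 2 D = ⊥)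
    (φ : ↥E →* D) (hφ : Function.Surjective φ) (hk : (Nat.card φ.ker).Coprime 2) (hE : opp 2 E = E) : QS 2 E := by
  refine ⟨?_, hE⟩
  have h1 : φ.ker = pPrimeCore 2 E := by
    apply le_antisymm
    · exact H1.Cores.le_pPrimeCore inferInstance hk
    · have h2 : (pPrimeCore 2 E).map φ ≤ pPrimeCore 2 D := by
        apply H1.Cores.le_pPrimeCore
        · exact Subgroup.Normal.map inferInstance _ hφ
        · exact Nat.Coprime.coprime_dvd_left (Subgroup.card_map_dvd _ _) (H1.Cores.coprime_card_pPrimeCore 2)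
      rw [hDO, le_bot_iff, Subgroup.map_eq_bot_iff] at h2
      exact h2
  let e : D ≃* (↥E ⧸ pPrimeCore 2 E) := ((QuotientGroup.quotientMulEquivOfEq h1.symm).trans
    (QuotientGroup.quotientKerEquivOfSurjective φ hφ)).symm
  have : Nontrivial D := H26.Quasisimple.nontrivial hD
  have : Nontrivial (↥E ⧸ pPrimeCore 2 E) := e.symm.toEquiv.nontrivial
  exact H26.Quasisimple.of_surjective hD e.toMonoidHom e.surjective

lemma opp_sup {M : Subgroup G} (hM : IsPComponent 2 M) : opp 2 (M ⊔ pPrimeCore 2 G) = M := by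
  have hQ := (isPComponent_iff.mp hM).2
  apply le_antisymm
  · apply opp_le_of_isSubnormal le_sup_left
    · exact (SN.mono (sn_top.mpr hM.1) le_sup_left le_top).2
    · set O := pPrimeCore 2 G with hO
      have a1 := Subgroup.relIndex_mul_relIndex ⊥ M (M ⊔ O) bot_le le_sup_left
      rw [Subgroup.relIndex_bot_left, Subgroup.relIndex_bot_left] at a1
      have a2 := Subgroup.relIndex_mul_relIndex ⊥ O (M ⊔ O) bot_le le_sup_right
      rw [Subgroup.relIndex_bot_left, Subgroup.relIndex_bot_left, Subgroup.relIndex_sup_right] at a2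
      have a3 := Subgroup.relIndex_mul_relIndex ⊥ (O ⊓ M) M bot_le inf_le_right
      rw [Subgroup.relIndex_bot_left, Subgroup.relIndex_bot_left, Subgroup.inf_relIndex_right] at a3
      have a4 : O.relIndex M ≠ 0 := by
        intro h0
        rw [h0, mul_zero] at a3
        exact Nat.card_pos.ne' a3.symm
      have a5 : Nat.card (O ⊓ M : Subgroup G) * M.relIndex (M ⊔ O) = Nat.card O := by
        apply Nat.eq_of_mul_eq_mul_right (Nat.pos_of_ne_zero a4)
        calc Nat.card (O ⊓ M : Subgroup G) * M.relIndex (M ⊔ O) * O.relIndex M =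
            (Nat.card (O ⊓ M : Subgroup G) * O.relIndex M) * M.relIndex (M ⊔ O) := by ring
          _ = Nat.card O * O.relIndex M := by rw [a3, a1, a2]
      exact Nat.Coprime.coprime_dvd_left (Dvd.intro_left _ a5) (H1.Cores.coprime_card_pPrimeCore 2)
  · conv_lhs => rw [← hQ.2]
    exact opp_mono le_sup_left

/-- proper normal subgroups of `E` have large index -/
theorem big_of {E : Subgroup G} {D : Type u} [Group D] [Finite D] (hD : IsQuasisimple D)
    (φ : ↥E →* D) (hφ : Function.Surjective φ) (hk : (Nat.card φ.ker).Coprime 2) (hE : opp 2 E = E) :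
    Big E (Nat.card (D ⧸ center D)) := by
  intro N hN hNt
  have hoppE : opp 2 (⊤ : Subgroup ↥E) = ⊤ := by
    have h1 := subgroupOf_opp (p := 2) (le_refl E)
    rwa [hE, subgroupOf_self] at h1
  have h1 : (N.map φ).Normal := Subgroup.Normal.map hN _ hφ
  rcases H26.Quasisimple.normal_eq_top_or_le_center hD (N.map φ) with h2 | h2
  · exfalso
    apply hNt
    rw [eq_top_iff, ← hoppE]
    apply opp_top_le_of_isSubnormal hN.isSubnormal
    have h3 : N.index ∣ Nat.card φ.ker := by
      have h4 : N ⊔ φ.ker = ⊤ := by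
        rw [← Subgroup.comap_map_eq, h2, Subgroup.comap_top]
      have h5 : N.relIndex φ.ker = N.index := by
        rw [← Subgroup.relIndex_sup_left, h4, Subgroup.relIndex_top_right]
      rw [← h5]
      exact Subgroup.relIndex_dvd_card _ _
    exact Nat.Coprime.coprime_dvd_left h3 hk
  · have h3 : N ≤ (center D).comap φ := Subgroup.map_le_iff_le_comap.mp h2
    have h4 : ((center D).comap φ).index = Nat.card (D ⧸ center D) := by
      rw [Subgroup.index_comap_of_surjective _ hφ]; rfl
    rw [← h4]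
    exact Nat.le_of_dvd (Nat.pos_of_ne_zero N.index_ne_zero_of_finite) (Subgroup.index_dvd_of_le h3)

theorem triv_comp {t : G} (ht : t * t = 1) {M : Subgroup G} (hM : IsPComponent 2 M)
    (htM : ∀ m ∈ M, t * m * t⁻¹ * m⁻¹ ∈ pPrimeCore 2 G) : ∃ E : Subgroup G, E ≤ M ∧
      IsPComponentOf 2 E (centralizer ({t} : Set G)) ∧ Big E (sq M) ∧
      (∀ m ∈ M, m * t = t * m → (∃ k : ℕ, m ^ 2 ^ k = 1) → m ∈ E) := by
  have hQ := (isPComponent_iff.mp hM).2
  have ht' : t⁻¹ = t := inv_eq_of_mul_eq_one_left ht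
  set O := pPrimeCore 2 G with hO
  have htn : t ∈ normalizer (M : Set G) := by
    have hconj : ∀ x ∈ M ⊔ O, t * x * t⁻¹ ∈ M ⊔ O := by
      intro x hx
      obtain ⟨m, hm, o, ho, rfl⟩ := Subgroup.mem_sup_of_normal_right.mp hx
      have h1 : t * (m * o) * t⁻¹ = (t * m * t⁻¹ * m⁻¹) * m * (t * o * t⁻¹) := by group
      rw [h1]
      have hOn : O.Normal := inferInstance
      exact mul_mem (mul_mem (le_sup_right (a := M) (htM m hm)) (le_sup_left (b := O) hm))
        (le_sup_right (a := M) (hOn.conj_mem o ho t))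
    have h1 : t ∈ normalizer ((M ⊔ O : Subgroup G) : Set G) := by
      rw [mem_normalizer_iff]
      intro x
      refine ⟨hconj x, fun hx => ?_⟩
      have h2 := hconj _ hx
      have h3 : t * (t * x * t⁻¹) * t⁻¹ = x := by
        rw [ht']
        calc t * (t * x * t) * t = (t * t) * x * (t * t) := by group
          _ = x := by rw [ht, one_mul, mul_one]
      rwa [h3] at h2
    have h2 := normalizer_le_normalizer_opp 2 _ h1
    rwa [opp_sup hM] at h2
  have htmem : ∀ m ∈ M, t * m * t⁻¹ ∈ M := fun m hm => (mem_normalizer_iff.mp htn m).mp hm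
  -- the odd core of `M`
  have hcore : ∀ n : ↥M, (n : G) ∈ O → n ∈ pPrimeCore 2 ↥M := by
    have h1 : (O.subgroupOf M) ≤ pPrimeCore 2 ↥M := by
      apply H1.Cores.le_pPrimeCore inferInstance
      have h2 : Nat.card (O.subgroupOf M) ∣ Nat.card O := by
        have h3 := Subgroup.card_dvd_of_le (show O ⊓ M ≤ O from inf_le_left)
        have h4 : Nat.card (O.subgroupOf M) = Nat.card (O ⊓ M : Subgroup G) := by
          rw [← Subgroup.subgroupOf_map_subtype]
          exact (Nat.card_congr ((O.subgroupOf M).equivMapOfInjective _ M.subtype_injective).toEquiv)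
        rwa [h4]
      exact Nat.Coprime.coprime_dvd_left h2 (H1.Cores.coprime_card_pPrimeCore 2)
    intro n hn
    exact h1 (mem_subgroupOf.mpr hn)
  let f : ↥M →* (↥M ⧸ pPrimeCore 2 ↥M) := QuotientGroup.mk' _
  have hf : Function.Surjective f := QuotientGroup.mk'_surjective _
  set A := M ⊓ centralizer ({t} : Set G) with hA
  have hcover : (A.subgroupOf M).map f = ⊤ := by
    rw [eq_top_iff]
    intro d _
    obtain ⟨m, rfl⟩ := hf d
    set n : G := t * m * t⁻¹ * (m : G)⁻¹ with hn
    have hnO : n ∈ O := htM m m.2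
    have hnM : n ∈ M := mul_mem (htmem m m.2) (inv_mem m.2)
    have hodd : ¬ 2 ∣ orderOf n := by
      intro hd
      have h1 : orderOf n ∣ Nat.card O := Subgroup.orderOf_dvd_natCard _ hnO
      have h2 : (Nat.card O).Coprime 2 := H1.Cores.coprime_card_pPrimeCore 2
      have h3 : 2 ∣ Nat.gcd (Nat.card O) 2 := Nat.dvd_gcd (hd.trans h1) dvd_rfl
      rw [h2] at h3
      exact absurd h3 (by decide)
    obtain ⟨j, hj⟩ : ∃ j, orderOf n = 2 * j + 1 := by
      rcases Nat.even_or_odd (orderOf n) with h | h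
      · exact absurd h.two_dvd hodd
      · exact h
    have htn' : t * n * t⁻¹ = n⁻¹ := by
      rw [hn, ht']
      calc t * (t * m * t * (m : G)⁻¹) * t = (t * t) * m * t * (m : G)⁻¹ * t := by group
        _ = m * (t⁻¹ * (m : G)⁻¹ * t⁻¹) := by rw [ht, one_mul, ht']; group
        _ = (t * m * t * (m : G)⁻¹)⁻¹ := by group
    set c := n ^ (j + 1) with hc
    have hcc : c * c = n := by
      rw [hc, ← pow_add]
      have : j + 1 + (j + 1) = orderOf n + 1 := by omega
      rw [this, pow_succ, pow_orderOf_eq_one, one_mul]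
    have htc : t * c * t⁻¹ = c⁻¹ := by
      rw [hc, ← conj_pow, htn', inv_pow]
    have hcM : c ∈ M := pow_mem hnM _
    have hcO : c ∈ O := pow_mem hnO _
    refine ⟨⟨c * m, mul_mem hcM m.2⟩, ?_, ?_⟩
    · change (⟨c * m, mul_mem hcM m.2⟩ : ↥M) ∈ A.subgroupOf M
      rw [mem_subgroupOf]
      refine ⟨mul_mem hcM m.2, ?_⟩
      change c * (m : G) ∈ centralizer ({t} : Set G)
      rw [mem_centralizer_singleton_iff]
      have h1 : t * (c * m) * t⁻¹ = c * m := by
        calc t * (c * m) * t⁻¹ = (t * c * t⁻¹) * (t * m * t⁻¹ * (m : G)⁻¹) * m := by group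
          _ = c⁻¹ * (c * c) * m := by rw [htc, hcc]
          _ = c * m := by group
      exact (mul_inv_eq_iff_eq_mul.mp h1).symm
    · have h1 : (⟨c * m, mul_mem hcM m.2⟩ : ↥M) = ⟨c, hcM⟩ * m := rfl
      rw [h1, map_mul]
      have h2 : f ⟨c, hcM⟩ = 1 := (QuotientGroup.eq_one_iff _).mpr (hcore ⟨c, hcM⟩ hcO)
      rw [h2, one_mul]
  have hAM : A ≤ M := inf_le_left
  set E := opp 2 A with hE
  have hEA : E ≤ A := opp_le 2 A
  have hEM : E ≤ M := hEA.trans hAM
  have hEE : opp 2 E = E := opp_opp 2 A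
  let φ : ↥E →* (↥M ⧸ pPrimeCore 2 ↥M) := f.comp (Subgroup.inclusion hEM)
  have hoppM : opp 2 (⊤ : Subgroup ↥M) = ⊤ := by
    have h1 := subgroupOf_opp (p := 2) (le_refl M)
    rwa [hQ.2, subgroupOf_self] at h1
  have hoppD : opp 2 (⊤ : Subgroup (↥M ⧸ pPrimeCore 2 ↥M)) = ⊤ := by
    have h1 := map_opp 2 f (⊤ : Subgroup ↥M)
    rw [hoppM, Subgroup.map_top_of_surjective f hf] at h1
    exact h1.symm
  have hφ : Function.Surjective φ := by
    intro d
    have h1 : d ∈ (E.subgroupOf M).map f := by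
      rw [hE, ← subgroupOf_opp hAM, map_opp, hcover, hoppD]
      exact mem_top d
    obtain ⟨x, hx, rfl⟩ := h1
    exact ⟨⟨x, mem_subgroupOf.mp hx⟩, rfl⟩
  have hk : (Nat.card φ.ker).Coprime 2 := by
    have h1 : φ.ker.map (Subgroup.inclusion hEM) ≤ pPrimeCore 2 ↥M := by
      rintro _ ⟨x, hx, rfl⟩
      exact (QuotientGroup.eq_one_iff _).mp hx
    have h2 := Subgroup.card_dvd_of_le h1
    have h3 : Nat.card (φ.ker.map (Subgroup.inclusion hEM)) = Nat.card φ.ker :=
      (Nat.card_congr (φ.ker.equivMapOfInjective _ (Subgroup.inclusion_injective hEM)).toEquiv).symm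
    rw [h3] at h2
    exact Nat.Coprime.coprime_dvd_left h2 (H1.Cores.coprime_card_pPrimeCore 2)
  have hQE : QS 2 E := qs_of hQ.1 (H1.Cores.pPrimeCore_quotient_pPrimeCore 2) φ hφ hk hEE
  refine ⟨E, hEM, ?_, big_of hQ.1 φ hφ hk hEE, ?_⟩
  · rw [pcOf_iff]
    refine ⟨SN.trans (SN.of_normal hEA (le_normalizer_opp 2 A)) ?_, hQE⟩
    have h1 := SN.inf (sn_top.mpr hM.1) (centralizer ({t} : Set G))
    rwa [top_inf_eq] at h1
  · intro m hm hmt hk
    exact mem_opp ⟨hm, mem_centralizer_singleton_iff.mpr hmt⟩ hk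

end H25.IcP5
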