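import Mathlib
import Cfsg.Agent.Lib.H34.SpWDefs

/-! S5707, piece KD, the case `k = 4` in standard coordinates. -/

set_option autoImplicit false
set_option maxHeartbeats 1000000

namespace H25.SpW

open Matrix H34.SpW

variable {F : Type*} [Field F]

/-- the standard form -/
def f0 (u v : Fin 4 → F) : F := u 0 * v 1 + u 1 * v 0 + u 2 * v 3 + u 3 * v 2

def Alt (X : Matrix (Fin 4) (Fin 4) F) : Prop :=
  X 1 0 = 0 ∧ X 0 1 = 0 ∧ X 3 2 = 0 ∧ X 2 3 = 0 ∧ X 1 1 = X 0 0 ∧ X 3 3 = X 2 2 ∧ X 3 0 = X 1 2 ∧ X 2 0 = X 1 3 ∧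
    X 3 1 = X 0 2 ∧ X 2 1 = X 0 3

def W4 : Submodule F (Matrix (Fin 4) (Fin 4) F) where
  carrier := {X | Alt X ∧ X 2 2 = X 0 0}
  add_mem' := by
    rintro X Y ⟨⟨a1, a2, a3, a4, a5, a6, a7, a8, a9, a10⟩, a11⟩ ⟨⟨b1, b2, b3, b4, b5, b6, b7, b8, b9, b10⟩, b11⟩
    refine ⟨⟨?_, ?_, ?_, ?_, ?_, ?_, ?_, ?_, ?_, ?_⟩, ?_⟩ <;> simp only [Matrix.add_apply, *, add_zero]
  zero_mem' := by
    refine ⟨⟨?_, ?_, ?_, ?_, ?_, ?_, ?_, ?_, ?_, ?_⟩, ?_⟩ <;> rfl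
  smul_mem' := by
    rintro c X ⟨⟨a1, a2, a3, a4, a5, a6, a7, a8, a9, a10⟩, a11⟩
    refine ⟨⟨?_, ?_, ?_, ?_, ?_, ?_, ?_, ?_, ?_, ?_⟩, ?_⟩ <;> simp only [Matrix.smul_apply, *, smul_zero]

lemma mem_W4 {X : Matrix (Fin 4) (Fin 4) F} : X ∈ W4 ↔ Alt X ∧ X 2 2 = X 0 0 := Iff.rfl

lemma sq4 (h2 : (2 : F) = 0) {X : Matrix (Fin 4) (Fin 4) F} (hX : X ∈ W4) :
    X * X = (X 0 0 * X 0 0 + X 0 2 * X 1 3 + X 0 3 * X 1 2) • (1 : Matrix (Fin 4) (Fin 4) F) := by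
  obtain ⟨⟨a1, a2, a3, a4, a5, a6, a7, a8, a9, a10⟩, a11⟩ := hX
  have hd : ∀ u : F, u + u = 0 := fun u => by linear_combination u * h2
  ext i j
  rw [Matrix.mul_apply, Fin.sum_univ_four, Matrix.smul_apply, Matrix.one_apply, smul_eq_mul]
  fin_cases i <;> fin_cases j <;>
    simp only [Fin.zero_eta, Fin.mk_one, Fin.reduceFinMk, a1, a2, a3, a4, a5, a6, a7, a8, a9, a10, a11, mul_zero, zero_mul,
      add_zero, zero_add, mul_one, if_true, Fin.reduceEq, if_false, Fin.isValue, one_ne_zero, zero_ne_one]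
  · linear_combination (X 0 2 * X 0 3) * h2
  · linear_combination (X 0 0 * X 0 2) * h2
  · linear_combination (X 0 0 * X 0 3) * h2
  · linear_combination (X 1 2 * X 1 3) * h2
  · ring
  · linear_combination (X 0 0 * X 1 2) * h2
  · linear_combination (X 0 0 * X 1 3) * h2
  · linear_combination (X 0 0 * X 1 3) * h2
  · linear_combination (X 0 0 * X 0 3) * h2
  · ring
  · linear_combination (X 0 3 * X 1 3) * h2
  · linear_combination (X 0 0 * X 1 2) * h2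
  · linear_combination (X 0 0 * X 0 2) * h2
  · linear_combination (X 0 2 * X 1 2) * h2
  · ring

lemma alt_of (h2 : (2 : F) = 0) {Y : Matrix (Fin 4) (Fin 4) F} (h : ∀ v, f0 (Y *ᵥ v) v = 0) : Alt Y := by
  have e0 := h ![1, 0, 0, 0]
  have e1 := h ![0, 1, 0, 0]
  have e2 := h ![0, 0, 1, 0]
  have e3 := h ![0, 0, 0, 1]
  have e01 := h ![1, 1, 0, 0]
  have e02 := h ![1, 0, 1, 0]
  have e03 := h ![1, 0, 0, 1]
  have e12 := h ![0, 1, 1, 0]
  have e13 := h ![0, 1, 0, 1]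
  have e23 := h ![0, 0, 1, 1]
  simp [f0, Matrix.mulVec, dotProduct, Fin.sum_univ_four] at e0 e1 e2 e3 e01 e02 e03 e12 e13 e23
  refine ⟨?_, ?_, ?_, ?_, ?_, ?_, ?_, ?_, ?_, ?_⟩
  · linear_combination e0
  · linear_combination e1
  · linear_combination e2
  · linear_combination e3
  · linear_combination e01 - e0 - e1 - Y 0 0 * h2
  · linear_combination e23 - e2 - e3 - Y 2 2 * h2
  · linear_combination e02 - e0 - e2 - Y 1 2 * h2
  · linear_combination e03 - e0 - e3 - Y 1 3 * h2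
  · linear_combination e12 - e1 - e2 - Y 0 2 * h2
  · linear_combination e13 - e1 - e3 - Y 0 3 * h2

lemma f_alt (h2 : (2 : F) = 0) {X : Matrix (Fin 4) (Fin 4) F} (hX : Alt X) (v : Fin 4 → F) : f0 (X *ᵥ v) v = 0 := by
  obtain ⟨a1, a2, a3, a4, a5, a6, a7, a8, a9, a10⟩ := hX
  simp only [f0, Matrix.mulVec, dotProduct, Fin.sum_univ_four, a1, a2, a3, a4, a5, a6, a7, a8, a9, a10]
  linear_combination (X 0 0 * v 0 * v 1 + X 2 2 * v 2 * v 3 + X 0 2 * v 1 * v 2 + X 0 3 * v 1 * v 3 + X 1 2 * v 0 * v 2 +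
    X 1 3 * v 0 * v 3) * h2

def E4 : Matrix (Fin 4) (Fin 4) F := !![0, 0, 0, 1; 0, 0, 0, 0; 0, 1, 0, 0; 0, 0, 0, 0]

def E4' : Matrix (Fin 4) (Fin 4) F := !![0, 0, 0, 0; 0, 0, 1, 0; 0, 0, 0, 0; 1, 0, 0, 0]

lemma E4_mulVec (v : Fin 4 → F) : (E4 : Matrix (Fin 4) (Fin 4) F) *ᵥ v = ![v 3, 0, v 1, 0] := by
  ext i; fin_cases i <;> simp [E4, Matrix.mulVec, dotProduct, Fin.sum_univ_four]

lemma E4'_mulVec (v : Fin 4 → F) : (E4' : Matrix (Fin 4) (Fin 4) F) *ᵥ v = ![0, v 2, 0, v 0] := by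
  ext i; fin_cases i <;> simp [E4', Matrix.mulVec, dotProduct, Fin.sum_univ_four]

theorem kd4 (h2 : (2 : F) = 0) (t : ℕ) (ht : 2 ≤ t) :
    Nonempty (KD 4 t (fun u v : Fin 4 → F => u 0 * v 1 + u 1 * v 0 + u 2 * v 3 + u 3 * v 2)) := by
  classical
  have h0t : 0 < t := by omega
  have h1t : 1 < t := by omega
  let i0 : Fin t := ⟨0, h0t⟩
  let i1 : Fin t := ⟨1, h1t⟩
  have hi : i1 ≠ i0 := by
    intro h; exact absurd (congrArg Fin.val h) (by simp [i0, i1])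
  let x : Fin t → Fin 4 → F := fun i => if i = i0 then ![0, 1, 0, 0] else ![1, 0, 0, 0]
  let y : Fin t → Fin 4 → F := fun i => if i = i0 then ![0, 0, 0, 1] else ![0, 1, 0, 0]
  let s : Fin t → Fin 4 → F := fun i => if i = i1 then ![0, 0, 1, 0] else ![1, 0, 0, 0]
  let z : Fin t → Fin 4 → F := fun i => if i = i1 then ![0, 0, 0, 1] else ![0, 1, 0, 0]
  have x0 : x i0 = ![0, 1, 0, 0] := if_pos rfl
  have x1 : x i1 = ![1, 0, 0, 0] := if_neg hi
  have y0 : y i0 = ![0, 0, 0, 1] := if_pos rfl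
  have s0 : s i0 = ![1, 0, 0, 0] := if_neg (Ne.symm hi)
  have s1 : s i1 = ![0, 0, 1, 0] := if_pos rfl
  have z0 : z i0 = ![0, 1, 0, 0] := if_neg (Ne.symm hi)
  have hup : ∀ (g : Fin t → Fin 4 → F) v, Function.update g i0 v i0 = v := fun g v => Function.update_self _ _ _
  refine ⟨{
    Wk := W4
    one := ?_
    sq := fun X hX => ⟨_, sq4 h2 hX⟩
    sim := ?_
    E := E4
    E' := E4'
    hE := ?_
    hE' := ?_
    EE := ?_
    EE' := ?_
    EEone := ?_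
    adjE := ?_
    adjE' := ?_
    alt := ?_
    p := ![0, 1, 0, 0]
    a := ![1, 0, 0, 0]
    b := ![0, 0, 0, 1]
    E'p := ?_
    fpa := ?_
    fqa := ?_
    fpb := ?_
    fqb := ?_
    x := x
    y := y
    s := s
    z := z
    i₀ := i0
    hxy := ?_
    hsz := ?_
    hxs := ?_
    hxz := ?_
    hys := ?_
    hyz := ?_
    hxs' := ?_
    hys' := ?_
    hxy' := ?_ }⟩
  · refine ⟨⟨?_, ?_, ?_, ?_, ?_, ?_, ?_, ?_, ?_, ?_⟩, ?_⟩ <;> simp [Matrix.one_apply]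
  · intro A c hc hA X hX
    set Y := (A : Matrix (Fin 4) (Fin 4) F) * X * ((A⁻¹ : GL (Fin 4) F) : Matrix (Fin 4) (Fin 4) F) with hY
    have hA' : ∀ u v, f0 ((A : Matrix (Fin 4) (Fin 4) F) *ᵥ u) ((A : Matrix (Fin 4) (Fin 4) F) *ᵥ v) = c * f0 u v := hA
    have halt : Alt Y := by
      apply alt_of h2
      intro v
      have h1 : v = (A : Matrix (Fin 4) (Fin 4) F) *ᵥ (((A⁻¹ : GL (Fin 4) F) : Matrix (Fin 4) (Fin 4) F) *ᵥ v) := by
        rw [Matrix.mulVec_mulVec, Units.mul_inv, Matrix.one_mulVec]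
      have h3 : Y *ᵥ v = (A : Matrix (Fin 4) (Fin 4) F) *ᵥ (X *ᵥ (((A⁻¹ : GL (Fin 4) F) : Matrix (Fin 4) (Fin 4) F) *ᵥ v)) := by
        rw [hY, Matrix.mulVec_mulVec, Matrix.mulVec_mulVec, Matrix.mul_assoc]
      rw [h3]
      obtain ⟨w, hw⟩ : ∃ w, w = ((A⁻¹ : GL (Fin 4) F) : Matrix (Fin 4) (Fin 4) F) *ᵥ v := ⟨_, rfl⟩
      rw [← hw] at h1 ⊢
      calc f0 ((A : Matrix (Fin 4) (Fin 4) F) *ᵥ (X *ᵥ w)) v
          = f0 ((A : Matrix (Fin 4) (Fin 4) F) *ᵥ (X *ᵥ w)) ((A : Matrix (Fin 4) (Fin 4) F) *ᵥ w) := by rw [← h1]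
        _ = c * f0 (X *ᵥ w) w := hA' _ _
        _ = 0 := by rw [f_alt h2 hX.1, mul_zero]
    have hsq : Y * Y = (X 0 0 * X 0 0 + X 0 2 * X 1 3 + X 0 3 * X 1 2) • (1 : Matrix (Fin 4) (Fin 4) F) := by
      have h1 : Y * Y = (A : Matrix (Fin 4) (Fin 4) F) * (X * X) * ((A⁻¹ : GL (Fin 4) F) : Matrix (Fin 4) (Fin 4) F) := by
        rw [hY]
        calc _ = (A : Matrix (Fin 4) (Fin 4) F) * X * ((((A⁻¹ : GL (Fin 4) F) : Matrix (Fin 4) (Fin 4) F)) *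
              (A : Matrix (Fin 4) (Fin 4) F)) * X * ((A⁻¹ : GL (Fin 4) F) : Matrix (Fin 4) (Fin 4) F) := by
                simp only [Matrix.mul_assoc]
          _ = _ := by rw [Units.inv_mul, Matrix.mul_one]; simp only [Matrix.mul_assoc]
      rw [h1, sq4 h2 hX, Matrix.mul_smul, Matrix.mul_one, Matrix.smul_mul, Units.mul_inv]
    refine ⟨halt, ?_⟩
    obtain ⟨a1, a2, a3, a4, a5, a6, a7, a8, a9, a10⟩ := halt
    have k0 := congrFun (congrFun hsq 0) 0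
    have k2 := congrFun (congrFun hsq 2) 2
    rw [Matrix.mul_apply, Fin.sum_univ_four, Matrix.smul_apply, Matrix.one_apply_eq] at k0 k2
    rw [a2, a7, a8] at k0
    rw [a4, a8, a10] at k2
    have k3 : (Y 2 2 - Y 0 0) * (Y 2 2 - Y 0 0) = 0 := by
      linear_combination k2 - k0 + (Y 0 0 * Y 0 0 - Y 0 0 * Y 2 2) * h2
    exact sub_eq_zero.mp (mul_self_eq_zero.mp k3)
  · refine ⟨⟨?_, ?_, ?_, ?_, ?_, ?_, ?_, ?_, ?_, ?_⟩, ?_⟩ <;> simp [E4]
  · refine ⟨⟨?_, ?_, ?_, ?_, ?_, ?_, ?_, ?_, ?_, ?_⟩, ?_⟩ <;> simp [E4']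
  · ext i j; fin_cases i <;> fin_cases j <;> simp [E4, Matrix.mul_apply, Fin.sum_univ_four]
  · ext i j; fin_cases i <;> fin_cases j <;> simp [E4', Matrix.mul_apply, Fin.sum_univ_four]
  · ext i j; fin_cases i <;> fin_cases j <;> simp [E4, E4', Matrix.mul_apply, Fin.sum_univ_four]
  · intro u v
    rw [E4_mulVec, E4_mulVec]; simp; ring
  · intro u v
    rw [E4'_mulVec, E4'_mulVec]; simp; ring
  · right
    intro v
    rw [E4_mulVec]
    simp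
    linear_combination (v 1 * v 3) * h2
  · rw [E4'_mulVec]; ext i; fin_cases i <;> simp
  · simp
  · rw [E4_mulVec]; simp
  · simp
  · rw [E4_mulVec]; simp
  · apply Finset.prod_eq_zero (Finset.mem_univ i0)
    rw [x0, y0]; simp
  · have : ∀ i, (s i 0 * z i 1 + s i 1 * z i 0 + s i 2 * z i 3 + s i 3 * z i 2) = (1 : F) := by
      intro i
      by_cases h : i = i1
      · simp [s, z, h]
      · simp [s, z, h]
    rw [Finset.prod_congr rfl (fun i _ => this i), Finset.prod_const_one]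
    exact one_ne_zero
  · apply Finset.prod_eq_zero (Finset.mem_univ i1)
    rw [x1, s1]; simp
  · apply Finset.prod_eq_zero (Finset.mem_univ i0)
    rw [x0, z0]; simp
  · apply Finset.prod_eq_zero (Finset.mem_univ i0)
    rw [y0, s0]; simp
  · apply Finset.prod_eq_zero (Finset.mem_univ i0)
    rw [y0, z0]; simp
  · apply Finset.prod_eq_zero (Finset.mem_univ i0)
    rw [hup, x0, s0, E4_mulVec]; simp
  · apply Finset.prod_eq_zero (Finset.mem_univ i0)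
    rw [hup, y0, s0, E4_mulVec]; simp
  · have : ∀ i, (Function.update x i0 (E4 *ᵥ x i0) i 0 * y i 1 + Function.update x i0 (E4 *ᵥ x i0) i 1 * y i 0 +
        Function.update x i0 (E4 *ᵥ x i0) i 2 * y i 3 + Function.update x i0 (E4 *ᵥ x i0) i 3 * y i 2) = (1 : F) := by
      intro i
      by_cases h : i = i0
      · rw [h, hup, x0, y0, E4_mulVec]; simp
      · rw [Function.update_of_ne h]
        simp [x, y, h]
    rw [Finset.prod_congr rfl (fun i _ => this i), Finset.prod_const_one]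
    exact one_ne_zero

end H25.SpW
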