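import Mathlib
import Cfsg.Agent.Lib.H97.AschHex

/-!
Rational structures over the prime field with five elements in the three-dimensional unitary space: an orthonormal
real frame.
-/

set_option autoImplicit false
set_option linter.unusedSectionVars false

namespace H25.U35B

open Cfsg Cfsg.Geo Matrix H97.AschRad H97.AschEnv H97.AschNonab H97.AschGrp H97.AschLinear H97.AschIdem H97.AschDecomp
open H97.AschForm H97.AschSubfield H97.AschReal H97.AschNCU H97.AschUSymp H97.AschUPair H97.AschUElim H97.AschPauli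
open H97.AschCases H97.AschNC H97.AschHex
open H96.AschSympType1 H96.AschSympType2 H96.AschSympType3 H96.AschSubForm H96.AschSympType5 H96.AschAdj
open H96.AschComm H96.AschField H96.AschSympEx
open H96.AschSp H96.AschSp2 H96.AschSU H96.AschSU2 H96.AschOdd2 H96.AschDescent H96.AschSU3

/-! ### diagonal forms over the prime field -/

/-- scaling factor -/
def tt (d e : ZMod 5) : ZMod 5 := if d = e then 1 else 2

def eps (a b c : ZMod 5) : ZMod 5 :=
  if (b = a ∨ b = 4 * a) ∧ (c = a ∨ c = 4 * a) then a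
  else if (b = a ∨ b = 4 * a) then 2 * a
  else if (c = a ∨ c = 4 * a) then 2 * a
  else 2 * b

def TT (a b c : ZMod 5) : Fin 3 → Fin 3 → ZMod 5 :=
  if (b = a ∨ b = 4 * a) ∧ (c = a ∨ c = 4 * a) then ![![1, 0, 0], ![0, tt b a, 0], ![0, 0, tt c a]]
  else if (b = a ∨ b = 4 * a) then ![![1, tt b a, 0], ![1, - tt b a, 0], ![0, 0, tt c (2 * a)]]
  else if (c = a ∨ c = 4 * a) then ![![1, 0, tt c a], ![1, 0, - tt c a], ![0, tt b (2 * a), 0]]
  else ![![0, 1, tt c b], ![0, 1, - tt c b], ![tt a (2 * b), 0, 0]]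

set_option maxRecDepth 100000 in
theorem table : ∀ a b c : ZMod 5, a ≠ 0 → b ≠ 0 → c ≠ 0 → eps a b c ≠ 0 ∧ ∀ i j : Fin 3,
    TT a b c i 0 * TT a b c j 0 * a + TT a b c i 1 * TT a b c j 1 * b + TT a b c i 2 * TT a b c j 2 * c =
      if i = j then eps a b c else 0 := by
  decide +kernel

lemma two_ne5 : (2 : ZMod 5) ≠ 0 := by decide

/-- orthogonal bases -/
theorem orth_basis {K : Type*} [Field K] (h2 : (2 : K) ≠ 0) (B : (Fin 3 → K) → (Fin 3 → K) → K)
    (hadd : ∀ u v w, B (u + v) w = B u w + B v w) (hsm : ∀ (c : K) u v, B (c • u) v = c * B u v)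
    (hsymm : ∀ u v, B u v = B v u) :
    ∃ b : Fin 3 → (Fin 3 → K), (∀ i j, i ≠ j → B (b i) (b j) = 0) ∧
      (∀ v, ∃ x : Fin 3 → K, v = ∑ i, x i • b i) ∧ (∀ i, b i ≠ 0) := by
  have : Invertible (2 : K) := invertibleOfNonzero h2
  let BB : LinearMap.BilinForm K (Fin 3 → K) := LinearMap.mk₂ K B hadd (fun c u v => by rw [hsm, smul_eq_mul])
    (fun u v w => by rw [hsymm u, hadd, hsymm v, hsymm w]) (fun c u v => by rw [hsymm u, hsm, hsymm v, smul_eq_mul])
  have hBB : LinearMap.IsSymm BB := ⟨fun u v => hsymm u v⟩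
  obtain ⟨v, hv⟩ := LinearMap.BilinForm.exists_orthogonal_basis hBB
  have hr : Module.finrank K (Fin 3 → K) = 3 := by simp
  let b := v.reindex (finCongr hr)
  refine ⟨fun i => b i, ?_, ?_, ?_⟩
  · intro i j hij
    have h1 : (finCongr hr).symm i ≠ (finCongr hr).symm j := fun h => hij ((finCongr hr).symm.injective h)
    have h3 := hv h1
    have h4 : BB (v ((finCongr hr).symm i)) (v ((finCongr hr).symm j)) = 0 := h3
    simpa [b, BB] using h4
  · intro w
    exact ⟨fun i => b.repr w i, (b.sum_repr w).symm⟩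
  · intro i
    exact b.ne_zero i

variable {F : Type*} [Field F] [Fintype F] {q : ℕ} {σ : F ≃+* F}

/-- the prime field is the given subfield -/
lemma prime_field {F₀ : Subfield F} (hF : Fintype.card F = 25) (hc : Fintype.card F = Nat.card F₀ ^ 2) :
    CharP F 5 ∧ ∀ φ : ZMod 5 →+* F, (∀ z, φ z ∈ F₀) ∧ ∀ x ∈ F₀, ∃ z, φ z = x := by
  have h0 : Nat.card F₀ = 5 := by
    rw [hF] at hc
    nlinarith
  have : Fact (Nat.Prime 5) := ⟨by norm_num⟩
  have hchar : CharP F 5 := by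
    obtain ⟨p, hp⟩ := CharP.exists F
    have := hp
    obtain ⟨n, hpr, hcard⟩ := FiniteField.card F p
    have h1 : p ∣ 5 ^ 2 := by
      have : (5 : ℕ) ^ 2 = p ^ (n : ℕ) := by rw [← hcard, hF]; norm_num
      rw [this]
      exact dvd_pow_self p n.ne_zero
    have h2 : p = 5 := (Nat.prime_dvd_prime_iff_eq hpr (by norm_num)).mp (hpr.dvd_of_dvd_pow h1)
    rwa [h2] at hp
  refine ⟨hchar, fun φ => ?_⟩
  have hmem : ∀ z, φ z ∈ F₀ := by
    intro z
    have h1 : φ z = ((z.val : ℕ) : F) := by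
      conv_lhs => rw [← ZMod.natCast_zmod_val z]
      rw [map_natCast]
    rw [h1]
    exact natCast_mem F₀ _
  refine ⟨hmem, ?_⟩
  let f : ZMod 5 → F₀ := fun z => ⟨φ z, hmem z⟩
  have hf : Function.Injective f := fun a b hab => φ.injective (congrArg Subtype.val hab)
  have hbij : Function.Bijective f := by
    exact hf.bijective_of_nat_card_le (by rw [h0, Nat.card_eq_fintype_card, ZMod.card])
  intro x hx
  obtain ⟨z, hz⟩ := hbij.2 ⟨x, hx⟩
  exact ⟨z, congrArg Subtype.val hz⟩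

/-- **an orthonormal real frame** -/
theorem real_frame (h : Ctx (F := F) σ 3 q) (hq : q = 5) {F₀ : Subfield F} {P : GL (Fin 3) F}
    (hc : Fintype.card F = Nat.card F₀ ^ 2) (hP : IsFormRationalStructure (hermForm 3 F q) F₀ 1 P) :
    ∃ (w : Fin 3 → (Fin 3 → F)), (∀ i j, hermForm 3 F q (w i) (w j) = if i = j then 1 else 0) ∧
      ∀ g ∈ subfieldSubgroup F₀ P, ∃ c : F, c ≠ 0 ∧ ∃ m : Fin 3 → Fin 3 → F, (∀ i j, m i j ∈ F₀) ∧
        ∀ j, (g : Matrix (Fin 3) (Fin 3) F) *ᵥ w j = c • ∑ i, m i j • w i := by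
  classical
  have hS := h.form.sesq
  have hF : Fintype.card F = 25 := by rw [h.card, hq]; norm_num
  obtain ⟨hchar, hφ⟩ := prime_field hF hc
  have : Fact (Nat.Prime 5) := ⟨by norm_num⟩
  let φ : ZMod 5 →+* F := ZMod.castHom (dvd_refl 5) F
  obtain ⟨hφ1, hφ2⟩ := hφ φ
  have hσφ : ∀ z, σ (φ z) = φ z := by
    intro z
    rw [h.val, hq, ← map_pow, ZMod.pow_card]
  have hσF : ∀ x ∈ F₀, σ x = x := by
    intro x hx
    obtain ⟨z, rfl⟩ := hφ2 x hx
    exact hσφ z
  have hrat : ∀ u v : Fin 3 → F, (∀ i, u i ∈ F₀) → (∀ i, v i ∈ F₀) →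
      hermForm 3 F q ((P : Matrix (Fin 3) (Fin 3) F) *ᵥ u) ((P : Matrix (Fin 3) (Fin 3) F) *ᵥ v) ∈ F₀ := by
    intro u v hu hv
    have := hP u v hu hv
    rwa [one_mul] at this
  let co : (Fin 3 → F₀) → (Fin 3 → F) := fun u i => (u i : F)
  have hco : ∀ u i, co u i ∈ F₀ := fun u i => (u i).2
  let B : (Fin 3 → F₀) → (Fin 3 → F₀) → F₀ := fun u v => ⟨_, hrat (co u) (co v) (hco u) (hco v)⟩
  have hB : ∀ u v, ((B u v : F₀) : F) = hermForm 3 F q ((P : Matrix (Fin 3) (Fin 3) F) *ᵥ co u)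
      ((P : Matrix (Fin 3) (Fin 3) F) *ᵥ co v) := fun u v => rfl
  have hcoadd : ∀ u v, co (u + v) = co u + co v := fun u v => by ext i; simp [co]
  have hcosm : ∀ (c : F₀) u, co (c • u) = (c : F) • co u := fun c u => by ext i; simp [co]
  have h2 : (2 : F₀) ≠ 0 := by
    intro h0
    have h1 : (2 : F) = 0 := by
      have := congrArg F₀.subtype h0
      rwa [map_ofNat, map_zero] at this
    have h3 : φ 2 = φ 0 := by rw [map_ofNat, map_zero]; exact h1
    exact two_ne5 (φ.injective h3)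
  obtain ⟨b, hb1, hb2, hb3⟩ := orth_basis h2 B
    (fun u v w => by
      apply Subtype.ext
      rw [Subfield.coe_add, hB, hB, hB, hcoadd, Matrix.mulVec_add, hS.add_left])
    (fun c u v => by
      apply Subtype.ext
      rw [Subfield.coe_mul, hB, hB, hcosm, Matrix.mulVec_smul, hS.smul_left])
    (fun u v => by
      apply Subtype.ext
      have h1 := h.form.herm ((P : Matrix (Fin 3) (Fin 3) F) *ᵥ co u) ((P : Matrix (Fin 3) (Fin 3) F) *ᵥ co v)
      rw [one_mul, hσF _ (hrat _ _ (hco v) (hco u))] at h1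
      exact h1)
  let bb : Fin 3 → (Fin 3 → F) := fun k => co (b k)
  have hbb0 : ∀ k, bb k ≠ 0 := by
    intro k h0
    apply hb3 k
    ext i
    have := congrFun h0 i
    simpa [bb, co] using this
  have hbbo : ∀ k l, k ≠ l → hermForm 3 F q ((P : Matrix (Fin 3) (Fin 3) F) *ᵥ bb k)
      ((P : Matrix (Fin 3) (Fin 3) F) *ᵥ bb l) = 0 := by
    intro k l hkl
    have := congrArg Subtype.val (hb1 k l hkl)
    simpa [hB] using this
  have hPinj : ∀ v, (P : Matrix (Fin 3) (Fin 3) F) *ᵥ v = 0 → v = 0 := by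
    intro v hv
    have h1 : ((P⁻¹ : GL (Fin 3) F) : Matrix (Fin 3) (Fin 3) F) *ᵥ ((P : Matrix (Fin 3) (Fin 3) F) *ᵥ v) = 0 := by
      rw [hv, Matrix.mulVec_zero]
    rwa [Matrix.mulVec_mulVec, Units.inv_mul, Matrix.one_mulVec] at h1
  have hnd : ∀ k, hermForm 3 F q ((P : Matrix (Fin 3) (Fin 3) F) *ᵥ bb k) ((P : Matrix (Fin 3) (Fin 3) F) *ᵥ bb k) ≠ 0 := by
    intro k h0
    have h1 : ∀ l, hermForm 3 F q ((P : Matrix (Fin 3) (Fin 3) F) *ᵥ bb k)
        ((P : Matrix (Fin 3) (Fin 3) F) *ᵥ bb l) = 0 := by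
      intro l
      by_cases hkl : k = l
      · subst hkl; exact h0
      · exact hbbo k l hkl
    obtain ⟨y, hy⟩ := h.form.nd _ (fun h00 => hbb0 k (hPinj _ h00))
    apply hy
    have h3 : ∀ j : Fin 3, hermForm 3 F q ((P : Matrix (Fin 3) (Fin 3) F) *ᵥ bb k)
        ((P : Matrix (Fin 3) (Fin 3) F) *ᵥ (Pi.single j 1)) = 0 := by
      intro j
      obtain ⟨x, hx⟩ := hb2 (Pi.single j 1)
      have h4 : (Pi.single j 1 : Fin 3 → F) = ∑ i, (x i : F) • bb i := by
        ext i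
        have h5 := congrArg Subtype.val (congrFun hx i)
        have h6 : ((Pi.single j 1 : Fin 3 → F₀) i : F) = (Pi.single j 1 : Fin 3 → F) i := by
          by_cases hij : i = j
          · subst hij; simp
          · rw [Pi.single_eq_of_ne hij, Pi.single_eq_of_ne hij]; simp
        rw [← h6, h5, Finset.sum_apply, Finset.sum_apply]
        simp [bb, co]
      rw [h4, Matrix.mulVec_sum, hS.sum_right]
      refine Finset.sum_eq_zero (fun i _ => ?_)
      rw [Matrix.mulVec_smul, hS.smul_right, h1, mul_zero]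
    have h7 : y = (P : Matrix (Fin 3) (Fin 3) F) *ᵥ (∑ j, (((P⁻¹ : GL (Fin 3) F) : Matrix (Fin 3) (Fin 3) F) *ᵥ y) j •
        Pi.single j (1 : F)) := by
      have h8 : (∑ j, (((P⁻¹ : GL (Fin 3) F) : Matrix (Fin 3) (Fin 3) F) *ᵥ y) j • Pi.single j (1 : F)) =
          ((P⁻¹ : GL (Fin 3) F) : Matrix (Fin 3) (Fin 3) F) *ᵥ y := by
        ext i
        simp [Finset.sum_apply, Pi.single_apply]
      rw [h8, Matrix.mulVec_mulVec, Units.mul_inv, Matrix.one_mulVec]
    rw [h7, Matrix.mulVec_sum, hS.sum_right]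
    refine Finset.sum_eq_zero (fun i _ => ?_)
    rw [Matrix.mulVec_smul, hS.smul_right, h3, mul_zero]
  have hex : ∀ k, ∃ e : ZMod 5, e ≠ 0 ∧ hermForm 3 F q ((P : Matrix (Fin 3) (Fin 3) F) *ᵥ bb k)
      ((P : Matrix (Fin 3) (Fin 3) F) *ᵥ bb k) = φ e := by
    intro k
    obtain ⟨z, hz⟩ := hφ2 _ (hrat (bb k) (bb k) (hco (b k)) (hco (b k)))
    refine ⟨z, ?_, hz.symm⟩
    rintro rfl
    rw [map_zero] at hz
    exact hnd k hz.symm
  choose e he0 he using hex
  obtain ⟨hε0, hT⟩ := table (e 0) (e 1) (e 2) (he0 0) (he0 1) (he0 2)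
  set ε := eps (e 0) (e 1) (e 2) with hε
  set T := TT (e 0) (e 1) (e 2) with hTT
  let uu : Fin 3 → (Fin 3 → F) := fun i => ∑ k, φ (T i k) • bb k
  have huu : ∀ i j, uu i j ∈ F₀ := by
    intro i j
    simp only [uu, Finset.sum_apply, Pi.smul_apply, smul_eq_mul]
    exact sum_mem (fun k _ => mul_mem (hφ1 _) (hco _ _))
  have hbbf : ∀ k l, hermForm 3 F q ((P : Matrix (Fin 3) (Fin 3) F) *ᵥ bb k)
      ((P : Matrix (Fin 3) (Fin 3) F) *ᵥ bb l) = if k = l then φ (e k) else 0 := by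
    intro k l
    by_cases hkl : k = l
    · subst hkl; rw [if_pos rfl, he]
    · rw [if_neg hkl, hbbo k l hkl]
  have hform : ∀ i j, hermForm 3 F q ((P : Matrix (Fin 3) (Fin 3) F) *ᵥ uu i)
      ((P : Matrix (Fin 3) (Fin 3) F) *ᵥ uu j) = if i = j then φ ε else 0 := by
    intro i j
    have h1 : hermForm 3 F q ((P : Matrix (Fin 3) (Fin 3) F) *ᵥ uu i)
      ((P : Matrix (Fin 3) (Fin 3) F) *ᵥ uu j) = ∑ k, φ (T i k) * (φ (T j k) * φ (e k)) := by
      simp only [uu, Matrix.mulVec_sum, Matrix.mulVec_smul]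
      rw [hS.sum_left]
      refine Finset.sum_congr rfl (fun k _ => ?_)
      rw [hS.smul_left, hS.sum_right, Finset.sum_eq_single k]
      · rw [hS.smul_right, hbbf, if_pos rfl, hσφ]
      · intro l _ hl
        rw [hS.smul_right, hbbf, if_neg (Ne.symm hl), mul_zero]
      · intro h; exact absurd (Finset.mem_univ _) h
    rw [h1, Fin.sum_univ_three]
    have h2 := congrArg φ (hT i j)
    rw [apply_ite φ, map_zero] at h2
    rw [← h2]
    simp only [map_add, map_mul]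
    ring
  have hε1 : φ ε ≠ 0 := by
    intro h0
    rw [← map_zero φ] at h0
    exact hε0 (φ.injective h0)
  obtain ⟨c0, hc0, hc0n⟩ := h.norm hε1 (hσφ ε)
  let w : Fin 3 → (Fin 3 → F) := fun i => c0⁻¹ • ((P : Matrix (Fin 3) (Fin 3) F) *ᵥ uu i)
  have hσc0 : σ c0 ≠ 0 := (map_ne_zero σ).mpr hc0
  have hww : ∀ i j, hermForm 3 F q (w i) (w j) = if i = j then 1 else 0 := by
    intro i j
    simp only [w]
    rw [hS.smul_left, hS.smul_right, hform, map_inv₀]
    by_cases hij : i = j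
    · rw [if_pos hij, if_pos hij, ← hc0n]; field_simp
    · rw [if_neg hij, if_neg hij]; ring
  refine ⟨w, hww, ?_⟩
  intro g hg
  obtain ⟨x, hx, rfl⟩ := hg
  obtain ⟨y, ⟨A, rfl⟩, c, rfl⟩ := mem_sup_scalars.1 hx
  set A' : Matrix (Fin 3) (Fin 3) F := ((Matrix.GeneralLinearGroup.map (F₀.subtype : F₀ →+* F) A : GL (Fin 3) F) :
    Matrix (Fin 3) (Fin 3) F) with hA'
  have hA'm : ∀ i j, A' i j ∈ F₀ := by
    intro i j
    rw [hA', Matrix.GeneralLinearGroup.map_apply]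
    exact (A i j).2
  have ht : ∀ j i, (A' *ᵥ uu j) i ∈ F₀ := by
    intro j i
    rw [Matrix.mulVec, dotProduct]
    exact sum_mem (fun k _ => mul_mem (hA'm _ _) (huu _ _))
  refine ⟨c * (c0⁻¹ * σ (c0⁻¹)), mul_ne_zero c.ne_zero (mul_ne_zero (inv_ne_zero hc0)
    ((map_ne_zero σ).mpr (inv_ne_zero hc0))), fun i j => hermForm 3 F q ((P : Matrix (Fin 3) (Fin 3) F) *ᵥ (A' *ᵥ uu j))
      ((P : Matrix (Fin 3) (Fin 3) F) *ᵥ uu i), fun i j => hrat _ _ (ht j) (huu i), ?_⟩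
  intro j
  have h1 : (((MulAut.conj P).toMonoidHom ((Matrix.GeneralLinearGroup.map (F₀.subtype : F₀ →+* F) A) * sc (Fin 3) c) :
      GL (Fin 3) F) : Matrix (Fin 3) (Fin 3) F) *ᵥ w j =
      ((c : F) * c0⁻¹) • ((P : Matrix (Fin 3) (Fin 3) F) *ᵥ (A' *ᵥ uu j)) := by
    change ((P * (Matrix.GeneralLinearGroup.map (F₀.subtype : F₀ →+* F) A * sc (Fin 3) c) * P⁻¹ : GL (Fin 3) F) :
      Matrix (Fin 3) (Fin 3) F) *ᵥ (c0⁻¹ • ((P : Matrix (Fin 3) (Fin 3) F) *ᵥ uu j)) = _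
    rw [Units.val_mul, Units.val_mul, Units.val_mul, sc_val, Matrix.mulVec_smul, Matrix.mulVec_mulVec, Matrix.mul_assoc,
      Units.inv_mul, Matrix.mul_one, ← Matrix.mulVec_mulVec, ← Matrix.mulVec_mulVec, Matrix.smul_mulVec,
      Matrix.one_mulVec, Matrix.mulVec_smul, Matrix.mulVec_smul, smul_smul, mul_comm c0⁻¹]
  rw [h1]
  conv_lhs => rw [frame_exp h hww ((P : Matrix (Fin 3) (Fin 3) F) *ᵥ (A' *ᵥ uu j))]
  rw [Finset.smul_sum, Finset.smul_sum]
  refine Finset.sum_congr rfl (fun i _ => ?_)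
  beta_reduce
  have h2 : hermForm 3 F q ((P : Matrix (Fin 3) (Fin 3) F) *ᵥ (A' *ᵥ uu j)) (w i) =
      σ (c0⁻¹) * hermForm 3 F q ((P : Matrix (Fin 3) (Fin 3) F) *ᵥ (A' *ᵥ uu j))
      ((P : Matrix (Fin 3) (Fin 3) F) *ᵥ uu i) := by
    simp only [w]
    rw [hS.smul_right]
  have key : ∀ (a b d x : F) (y : Fin 3 → F), (d * a) • ((b * x) • y) = (d * (a * b)) • (x • y) := by
    intro a b d x y
    rw [smul_smul, smul_smul]
    congr 1
    ring
  rw [h2]
  exact key _ _ _ _ _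

end H25.U35B
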