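import Mathlib
import Cfsg.Agent.Lib.H25.U35Fr
import Cfsg.Agent.Lib.H17.U35A
import Cfsg.Agent.Lib.H14.U35B

/-!
Subfield subgroups are not maximal in the three-dimensional unitary group over the field with 25 elements
(piece B of S5778).
-/

set_option autoImplicit false
set_option linter.unusedSectionVars false

namespace H25.U35B

open Cfsg Cfsg.Geo Matrix H97.AschRad H97.AschEnv H97.AschNonab H97.AschGrp H97.AschLinear H97.AschIdem H97.AschDecomp
open H97.AschForm H97.AschSubfield H97.AschReal H97.AschNCU H97.AschUSymp H97.AschUPair H97.AschUElim H97.AschPauli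
open H97.AschCases H97.AschNC H97.AschHex
open H96.AschSympType1 H96.AschSympType2 H96.AschSympType3 H96.AschSubForm H96.AschSympType5 H96.AschAdj
open H96.AschComm H96.AschField H96.AschSympEx
open H96.AschSp H96.AschSp2 H96.AschSU H96.AschSU2 H96.AschOdd2 H96.AschDescent H96.AschSU3

lemma sq_cases : ∀ d k : ZMod 5, k ≠ 0 → d * d = k ^ 3 → k = 1 ∨ k = 4 := by decide

lemma no_omega : ∀ z : ZMod 5, z * z + z + 1 ≠ 0 := by decide

lemma e334 : (3 : ZMod 5) * 3 * 4 = 1 := by decide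

lemma e23 : (2 : ZMod 5) * 3 = 1 := by decide

variable {F : Type*} [Field F] [Fintype F] {q : ℕ} {σ : F ≃+* F} {w : Fin 3 → (Fin 3 → F)}

/-- real unitary elements are scalar times orthogonal -/
theorem ortho_coord (h : Ctx (F := F) σ 3 q) (hq : q = 5) (φ : ZMod 5 →+* F)
    (hww : ∀ i j, hermForm 3 F q (w i) (w j) = if i = j then 1 else 0) {g : GL (Fin 3) F} (hgU : g ∈ GU 3 F q)
    {c : F} (hc0 : c ≠ 0) {m : Fin 3 → Fin 3 → F} (hm : ∀ i j, ∃ z, φ z = m i j)
    (hg : ∀ j, (g : Matrix (Fin 3) (Fin 3) F) *ᵥ w j = c • ∑ i, m i j • w i) :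
    ∃ (s : F) (A : Matrix (Fin 3) (Fin 3) (ZMod 5)), s ≠ 0 ∧ A.transpose * A = 1 ∧
      ∀ j, (g : Matrix (Fin 3) (Fin 3) F) *ᵥ w j = s • ∑ i, φ (A i j) • w i := by
  have hS := h.form.sesq
  have : Fact (Nat.Prime 5) := ⟨by norm_num⟩
  have hgU' : ∀ u v, hermForm 3 F q ((g : Matrix (Fin 3) (Fin 3) F) *ᵥ u) ((g : Matrix (Fin 3) (Fin 3) F) *ᵥ v) =
      hermForm 3 F q u v := hgU
  have hσφ : ∀ z, σ (φ z) = φ z := by
    intro z
    rw [h.val, hq, ← map_pow, ZMod.pow_card]
  choose m0 hm0 using hm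
  have hgram : ∀ j k, (c * σ c) * φ (∑ i, m0 i j * m0 i k) = if j = k then 1 else 0 := by
    intro j k
    have h1 := hgU' (w j) (w k)
    rw [hg, hg, hS.smul_left, hS.smul_right, hS.sum_left, hww] at h1
    rw [← h1, map_sum, Finset.mul_sum, Finset.mul_sum, Finset.mul_sum]
    refine Finset.sum_congr rfl (fun i _ => ?_)
    rw [hS.smul_left, hS.sum_right, Finset.sum_eq_single i]
    · rw [hS.smul_right, hww, if_pos rfl, ← hm0, ← hm0, hσφ, map_mul]; ring
    · intro l _ hl
      rw [hS.smul_right, hww, if_neg (Ne.symm hl), mul_zero]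
    · intro h; exact absurd (Finset.mem_univ _) h
  let M : Matrix (Fin 3) (Fin 3) (ZMod 5) := Matrix.of m0
  obtain ⟨κ, hκ⟩ : ∃ κ, κ = ∑ i, m0 i 0 * m0 i 0 := ⟨_, rfl⟩
  have hN : c * σ c ≠ 0 := mul_ne_zero hc0 ((map_ne_zero σ).mpr hc0)
  have hκ1 : (c * σ c) * φ κ = 1 := by rw [hκ, hgram, if_pos rfl]
  have hMM : M.transpose * M = κ • (1 : Matrix (Fin 3) (Fin 3) (ZMod 5)) := by
    ext j k
    rw [Matrix.mul_apply, Matrix.smul_apply, Matrix.one_apply]
    change ∑ i, m0 i j * m0 i k = κ • (if j = k then 1 else 0)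
    apply φ.injective
    apply mul_left_cancel₀ hN
    rw [hgram]
    by_cases hjk : j = k
    · rw [if_pos hjk, if_pos hjk, smul_eq_mul, mul_one, hκ1]
    · rw [if_neg hjk, if_neg hjk, smul_zero, map_zero, mul_zero]
  have hκ0 : κ ≠ 0 := by
    rintro rfl
    rw [map_zero, mul_zero] at hκ1
    exact zero_ne_one hκ1
  have hdet := congrArg Matrix.det hMM
  rw [Matrix.det_mul, Matrix.det_transpose, Matrix.det_smul, Matrix.det_one, mul_one, Fintype.card_fin] at hdet
  rcases sq_cases _ _ hκ0 hdet with h1 | h4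
  · refine ⟨c, M, hc0, by rw [hMM, h1, one_smul], fun j => ?_⟩
    rw [hg]
    congr 1
    exact Finset.sum_congr rfl (fun i _ => by rw [← hm0]; rfl)
  · have h6 : (2 : F) * φ 3 = 1 := by
      have := congrArg φ e23
      rwa [map_mul, map_one, map_ofNat] at this
    refine ⟨c * 2, (3 : ZMod 5) • M, mul_ne_zero hc0 (left_ne_zero_of_mul_eq_one h6), ?_, fun j => ?_⟩
    · rw [Matrix.transpose_smul, Matrix.smul_mul, Matrix.mul_smul, hMM, h4, smul_smul, smul_smul]
      rw [e334, one_smul]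
    · rw [hg, mul_smul, Finset.smul_sum (r := (2 : F))]
      congr 1
      refine Finset.sum_congr rfl (fun i _ => ?_)
      rw [Matrix.smul_apply, smul_eq_mul, map_mul, smul_smul, ← mul_assoc, h6, one_mul, ← hm0]
      rfl

/-- diagonal elements in the frame -/
theorem exists_diag (h : Ctx (F := F) σ 3 q)
    (hww : ∀ i j, hermForm 3 F q (w i) (w j) = if i = j then 1 else 0) {d : Fin 3 → F} (hd : ∀ i, d i * σ (d i) = 1)
    (hdet : ∏ i, d i = 1) : ∃ g ∈ GU 3 F q ⊓ specialLinear (Fin 3) F,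
      ∀ i, (g : Matrix (Fin 3) (Fin 3) F) *ᵥ w i = d i • w i := by
  have hS := h.form.sesq
  obtain ⟨Q, hQ⟩ := exists_cols (frame_li h hww)
  have hD1 : (Matrix.diagonal d).det = 1 := by rw [Matrix.det_diagonal, hdet]
  let D : GL (Fin 3) F := Matrix.GeneralLinearGroup.mkOfDetNeZero (Matrix.diagonal d) (by rw [hD1]; exact one_ne_zero)
  have hDv : (D : Matrix (Fin 3) (Fin 3) F) = Matrix.diagonal d := rfl
  have hQs : ∀ y, w y = (Q : Matrix (Fin 3) (Fin 3) F) *ᵥ Pi.single y 1 := by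
    intro y
    rw [hQ, Finset.sum_eq_single y]
    · rw [Pi.single_eq_same, one_smul]
    · intro j _ hj; rw [Pi.single_eq_of_ne hj, zero_smul]
    · intro h; exact absurd (Finset.mem_univ _) h
  have hgw : ∀ i, ((Q * D * Q⁻¹ : GL (Fin 3) F) : Matrix (Fin 3) (Fin 3) F) *ᵥ w i = d i • w i := by
    intro i
    conv_lhs => rw [hQs i]
    rw [Matrix.mulVec_mulVec, ← Units.val_mul, inv_mul_cancel_right, Units.val_mul, ← Matrix.mulVec_mulVec, hDv]
    have h1 : (Matrix.diagonal d) *ᵥ (Pi.single i (1 : F)) = d i • Pi.single i (1 : F) := by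
      ext j
      rw [Matrix.mulVec_diagonal, Pi.smul_apply, smul_eq_mul]
      by_cases hij : j = i
      · subst hij; rfl
      · rw [Pi.single_eq_of_ne hij, mul_zero, mul_zero]
    rw [h1, Matrix.mulVec_smul, ← hQs]
  refine ⟨Q * D * Q⁻¹, ⟨?_, ?_⟩, hgw⟩
  · set g : GL (Fin 3) F := Q * D * Q⁻¹ with hgdef
    have key : ∀ u v, hermForm 3 F q ((g : Matrix (Fin 3) (Fin 3) F) *ᵥ u) ((g : Matrix (Fin 3) (Fin 3) F) *ᵥ v) =
        hermForm 3 F q u v := by
      intro u v
      conv_lhs => rw [frame_exp h hww u, frame_exp h hww v]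
      conv_rhs => rw [frame_exp h hww u, frame_exp h hww v]
      rw [Matrix.mulVec_sum, Matrix.mulVec_sum, hS.sum_left, hS.sum_left]
      refine Finset.sum_congr rfl (fun i _ => ?_)
      rw [hS.sum_right, hS.sum_right]
      refine Finset.sum_congr rfl (fun j _ => ?_)
      rw [Matrix.mulVec_smul, Matrix.mulVec_smul, hgw, hgw, hS.smul_left, hS.smul_left, hS.smul_left, hS.smul_right,
        hS.smul_right, hS.smul_right, hww]
      by_cases hij : i = j
      · subst hij
        rw [if_pos rfl]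
        linear_combination (hermForm 3 F q u (w i) * σ (hermForm 3 F q v (w i))) * hd i
      · rw [if_neg hij]; ring
    exact key
  · have h1 : D ∈ specialLinear (Fin 3) F := by
      rw [H97.AschFive2.mem_SL, hDv, hD1]
    exact (MonoidHom.normal_ker (Matrix.GeneralLinearGroup.det : GL (Fin 3) F →* Fˣ)).conj_mem D h1 Q

/-- **no maximal subgroup is contained in a subfield group** -/
theorem no_subfield (h : Ctx (F := F) σ 3 q) (hq : q = 5) {F₀ : Subfield F} {P : GL (Fin 3) F}
    (hc : Fintype.card F = Nat.card F₀ ^ 2) (hP : IsFormRationalStructure (hermForm 3 F q) F₀ 1 P)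
    {H : Subgroup (GL (Fin 3) F)} (hH : IsMaximalIn (GU 3 F q ⊓ specialLinear (Fin 3) F) H)
    (hle : H ≤ subfieldSubgroup F₀ P) : False := by
  classical
  have hS := h.form.sesq
  have hF : Fintype.card F = 25 := by rw [h.card, hq]; norm_num
  obtain ⟨hchar, hφ⟩ := prime_field hF hc
  have : Fact (Nat.Prime 5) := ⟨by norm_num⟩
  let φ : ZMod 5 →+* F := ZMod.castHom (dvd_refl 5) F
  obtain ⟨hφ1, hφ2⟩ := hφ φ
  obtain ⟨w, hww, hreal⟩ := real_frame h hq hc hP
  have hHM : H ≤ H17.U35A.stabOm q w := by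
    have key : ∀ g ∈ H, ∀ v, H17.U35.Om (H17.U35A.co q w v) →
        H17.U35.Om (H17.U35A.co q w ((g : Matrix (Fin 3) (Fin 3) F) *ᵥ v)) := by
      intro g hg v hv
      obtain ⟨c, hc0, m, hm, hgm⟩ := hreal g (hle hg)
      obtain ⟨s, A, hs, hA, hgA⟩ := ortho_coord h hq φ hww (hH.1.le hg).1 hc0 (fun i j => hφ2 _ (hm i j)) hgm
      have h1 : H17.U35A.co q w ((g : Matrix (Fin 3) (Fin 3) F) *ᵥ v) =
          fun i => s * ∑ j, φ (A i j) * H17.U35A.co q w v j := by
        ext i
        have h2 : (g : Matrix (Fin 3) (Fin 3) F) *ᵥ v =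
            ∑ j, (H17.U35A.co q w v j) • (s • ∑ i, φ (A i j) • w i) := by
          conv_lhs => rw [frame_exp h hww v]
          rw [Matrix.mulVec_sum]
          refine Finset.sum_congr rfl (fun j _ => ?_)
          rw [Matrix.mulVec_smul, hgA]
          rfl
        have h3 : ∀ (x : Fin 3 → (Fin 3 → F)), H17.U35A.co q w (∑ j, x j) i = ∑ j, H17.U35A.co q w (x j) i := by
          intro x
          change hermForm 3 F q _ _ = _
          rw [hS.sum_left]
          rfl
        rw [h2, h3, Finset.mul_sum]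
        refine Finset.sum_congr rfl (fun j _ => ?_)
        rw [H17.U35A.co_smul h, H17.U35A.co_smul h, H17.U35A.co_sum h hww]
        ring
      rw [h1]
      exact H17.U35.Om_smul hF hs (H14.U35B.orth' hF φ A hA hv)
    intro g hg v
    constructor
    · intro hv
      have h1 := key g⁻¹ (H.inv_mem hg) _ hv
      rwa [Matrix.mulVec_mulVec, ← Units.val_mul, inv_mul_cancel, Units.val_one, Matrix.one_mulVec] at h1
    · exact key g hg v
  have hHeq := eq_of_max hH hHM (H17.U35A.not_le h hq hww)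
  obtain ⟨r, hr, h5⟩ := H17.U35.exists_r hF
  let ω : F := 2 + 3 * r
  have hω : ω * ω + ω + 1 = 0 := by
    simp only [ω]
    linear_combination 9 * hr + (5 + 3 * r) * h5
  have hω3 : ω ^ 3 = 1 := by linear_combination (ω - 1) * hω
  have hω6 : ω * σ ω = 1 := by
    rw [h.val, hq]
    calc ω * ω ^ 5 = (ω ^ 3) ^ 2 := by ring
      _ = 1 := by rw [hω3, one_pow]
  let d : Fin 3 → F := ![ω, ω ^ 2, 1]
  have hdd : ∀ i, d i * σ (d i) = 1 := by
    intro i
    fin_cases i
    · exact hω6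
    · change ω ^ 2 * σ (ω ^ 2) = 1
      rw [map_pow, ← mul_pow, hω6, one_pow]
    · change (1 : F) * σ 1 = 1
      rw [map_one, mul_one]
  have hdet : ∏ i, d i = 1 := by
    rw [Fin.prod_univ_three]
    change ω * ω ^ 2 * 1 = 1
    rw [mul_one, ← pow_succ', hω3]
  obtain ⟨g, hg, hgd⟩ := exists_diag h hww hdd hdet
  have hgM : g ∈ H17.U35A.stabOm q w := by
    have key : ∀ v, H17.U35.Om (H17.U35A.co q w v) →
        H17.U35.Om (H17.U35A.co q w ((g : Matrix (Fin 3) (Fin 3) F) *ᵥ v)) :=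
      fun v hv => H17.U35A.mono_mem h hq hww hg (π := 1) (d := d) (fun i => by rw [hgd]; rfl) hdd v hv
    have h3 : ∀ v, ((g : Matrix (Fin 3) (Fin 3) F) *ᵥ ((g : Matrix (Fin 3) (Fin 3) F) *ᵥ
        ((g : Matrix (Fin 3) (Fin 3) F) *ᵥ v))) = v := by
      intro v
      conv_lhs => rw [frame_exp h hww v]
      conv_rhs => rw [frame_exp h hww v]
      rw [Matrix.mulVec_sum, Matrix.mulVec_sum, Matrix.mulVec_sum]
      refine Finset.sum_congr rfl (fun i _ => ?_)
      have h4 : d i * (d i * d i) = 1 := by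
        fin_cases i
        · change ω * (ω * ω) = 1
          linear_combination hω3
        · change ω ^ 2 * (ω ^ 2 * ω ^ 2) = 1
          linear_combination (ω ^ 3 + 1) * hω3
        · change (1 : F) * (1 * 1) = 1
          norm_num
      rw [Matrix.mulVec_smul, Matrix.mulVec_smul, Matrix.mulVec_smul, hgd, Matrix.mulVec_smul, Matrix.mulVec_smul, hgd,
        Matrix.mulVec_smul, hgd]
      simp only [smul_smul]
      congr 1
      linear_combination hermForm 3 F q v (w i) * h4
    intro v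
    constructor
    · intro hv
      have h4 := key _ (key _ hv)
      rwa [h3] at h4
    · exact key v
  have hgH : g ∈ H := by
    rw [hHeq]
    exact ⟨hgM, hg⟩
  obtain ⟨c, hc0, m, hm, hgm⟩ := hreal g (hle hgH)
  have e : ∀ j, d j = c * m j j := by
    intro j
    have h1 : H17.U35A.co q w (d j • w j) j = H17.U35A.co q w (c • ∑ i, m i j • w i) j :=
      congrArg (fun v => H17.U35A.co q w v j) ((hgd j).symm.trans (hgm j))
    rw [H17.U35A.co_smul h, H17.U35A.co_smul h, H17.U35A.co_sum h hww] at h1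
    have h2 : H17.U35A.co q w (w j) j = 1 := by
      change hermForm 3 F q _ _ = _
      rw [hww, if_pos rfl]
    rwa [h2, mul_one] at h1
  have e2 : (1 : F) = c * m 2 2 := e 2
  have e0 : ω = c * m 0 0 := e 0
  have hcF : c ∈ F₀ := by
    have h1 : c = (m 2 2)⁻¹ := eq_inv_of_mul_eq_one_left e2.symm
    rw [h1]
    exact inv_mem (hm 2 2)
  have hωF : ω ∈ F₀ := by
    rw [e0]
    exact mul_mem hcF (hm 0 0)
  obtain ⟨z, hz⟩ := hφ2 ω hωF
  apply no_omega z
  apply φ.injective
  rw [map_add, map_add, map_mul, hz, map_one, map_zero, hω]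

end H25.U35B
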